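import Cfsg.Agent.H515.EPO.KTwoS
import Cfsg.Agent.H284.EPO.Pan

/-!
# S5745, OWN characteristic: there is only one factor, `DQ`-form (helper515)

The statements of `KTwoS.lean` with the output `DQ` of the `G`-side as hypothesis (for `G = ²F₄(q)`).
-/

set_option autoImplicit false
set_option linter.unusedSectionVars false

namespace Cfsg.Agent.H515.EPO.KTwo

open Cfsg.Agent.H284 Cfsg.Agent.H209.EPX Cfsg.Agent.H737.EPO Cfsg.Agent.H470.EPO Cfsg.Agent.KFacts.RgdFilt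
open Cfsg.Agent.KFacts.RgdBorelTits Cfsg.Agent.KFacts.RgdCharP Cfsg.Agent.Tits.Roots Cfsg.Agent.Nodes.Reps
  Cfsg.Agent.H284.Pan

section

variable {G : Type*} [Group G] [Finite G] {H N : Subgroup G} {T : Type} [Group T] [Finite T] {k : ℕ}
  {e : N ≃* (Fin k → T)} (h : EPS H N e) {p : ℕ} [Fact p.Prime]

include h

/-- **only one factor**, `EPS`-form, `DQ` as hypothesis -/
theorem k_eq_one_dq {I : Type*} [Nonempty I] {S : PSys T p I} (hS : Rk S)
    (hDQ : ∀ (e' : N ≃* (Fin k → T)) (J : Fin k → Set I), VV e' S J ≠ ⊥ → DQ H e' S J)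
    (hne : p = 2 → (∀ j : I, (S.V {j}).relIndex (S.V ∅) = 2) → ∀ s, 1 + (S.P ∅).index ≠ 2 ^ s) : k = 1 := by
  have := h.simple
  obtain ⟨P, -, hP⟩ := exists_sylIn (p := p) (H := H) (K := ⊥) bot_le IsPGroup.of_bot
  obtain ⟨e', hPN⟩ := exists_std S e h.nrm h.le hP
  exact k_eq_one e' h.nab hS h.ep h.toMinN h.pos hP hPN (fun J hJ => hDQ e' J hJ) hne

/-- **only one factor**, `T` of rank one, `DQ` as hypothesis -/
theorem k_eq_one_R1_dq [IsSimpleGroup T] (D : R1 p T)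
    (hDQ : ∀ (e' : N ≃* (Fin k → T)) (J : Fin k → Set Unit), VV e' D.psys J ≠ ⊥ → DQ H e' D.psys J) : k = 1 := by
  apply k_eq_one_dq h D.rk hDQ
  intro _ h1 s _
  have h2 := P_index e D.rk ⟨0, h.pos⟩ ()
  rw [h1 ()] at h2
  have h3 : (D.psys).P {()} = ⊤ := by
    rw [← (D.psys).P_univ]
    congr 1
    ext x
    simp
  rw [h3, Subgroup.relIndex_top_right] at h2
  exact index_ne_three h.nab _ h2

/-- **only one factor**: all simple root groups have order at least three, `DQ` as hypothesis -/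
theorem k_eq_one_filtC_dq {l : ℕ} (hl : 0 < l) {M : CoxeterMatrix (Fin l)} (hF : FiltC p 3 M T)
    (hDQ : ∀ (S : PSys T p (Fin l)) (e' : N ≃* (Fin k → T)) (J : Fin k → Set (Fin l)), VV e' S J ≠ ⊥ →
      DQ H e' S J) : k = 1 := by
  have := h.simple
  obtain ⟨A, hC, Tt, n, X, R, F, hW, hX, hF, hc⟩ := hF
  have hne : Nonempty (Fin l) := ⟨⟨0, hl⟩⟩
  have hG := GG_eq_top (T := Tt) hX
  have hconn := KFacts.RgdLieCharP.conn_of_simple R hX (KFacts.RgdLieCharP.center_eq_bot h.nab)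
  have hBT : BT M.toCoxeterSystem hC p Tt X := fun K hK h1 => borel_tits_of_filt hF hX hK h1
  refine k_eq_one_dq h (rk_ofRGD R hBT hG hX hconn) (fun e' J hJ => hDQ _ e' J hJ) fun _ h1 s => ?_
  exfalso
  have h2 : Nat.card (X (sr ⟨0, hl⟩)) = 2 := (relIndex_ofRGD R hBT hG hX hconn ⟨0, hl⟩).symm.trans (h1 ⟨0, hl⟩)
  have h3 := hc ⟨0, hl⟩
  omega

end

end Cfsg.Agent.H515.EPO.KTwo
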