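import Cfsg.Agent.H515.EPO.KTwoS
import Cfsg.Agent.H542.EPX.OwnGlue

/-!
# S5745, OWN characteristic: socles `T ^ k`, `T` of rank one, `k ≥ 2` (helper515)

* `k_eq_one_filtC` : `T` with a filtered root group datum, all simple root groups of order at least three: `k = 1`;
* `own_k2` : `RankOne p T` and `k ≥ 2` is impossible.
-/

set_option autoImplicit false
set_option linter.unusedSectionVars false

namespace Cfsg.Agent.H515.EPO.KTwo

open Cfsg.Agent.H284 Cfsg.Agent.H209.EPX Cfsg.Agent.H737.EPO Cfsg.Agent.H470.EPO Cfsg.Agent.KFacts.RgdFilt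
open Cfsg.Agent.KFacts.RgdBorelTits Cfsg.Agent.KFacts.RgdCharP Cfsg.Agent.Tits.Roots Cfsg.Agent.Nodes.Reps Cfsg.Agent.H284.Pan Cfsg.Agent.H218.OWN Cfsg.Agent.H542.EPX

section

variable {G : Type*} [Group G] [Finite G] {H N : Subgroup G} {T : Type} [Group T] [Finite T] {k : ℕ}
  {e : N ≃* (Fin k → T)} (h : EPS H N e) {p : ℕ} [Fact p.Prime]
  {Y : Type*} [Group Y] [Finite Y] [IsSimpleGroup Y] (hY : HasFilt p Y) (hYn : ∃ a b : Y, a * b ≠ b * a)
  {j : Y →* G} (hj : Function.Injective j) (hn : j.range.Normal) (hNj : N ≤ j.range)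

include h hY hYn hj hn hNj

/-- **only one factor**: all simple root groups have order at least three -/
theorem k_eq_one_filtC {l : ℕ} (hl : 0 < l) {M : CoxeterMatrix (Fin l)} (hF : FiltC p 3 M T) : k = 1 := by
  have := h.simple
  obtain ⟨A, hC, Tt, n, X, R, F, hW, hX, hF, hc⟩ := hF
  have hne : Nonempty (Fin l) := ⟨⟨0, hl⟩⟩
  have hG := GG_eq_top (T := Tt) hX
  have hconn := KFacts.RgdLieCharP.conn_of_simple R hX (KFacts.RgdLieCharP.center_eq_bot h.nab)
  have hBT : BT M.toCoxeterSystem hC p Tt X := fun K hK h1 => borel_tits_of_filt hF hX hK h1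
  refine k_eq_one_S h hY hYn hj hn hNj (rk_ofRGD R hBT hG hX hconn) fun _ h1 s => ?_
  exfalso
  have h2 : Nat.card (X (sr ⟨0, hl⟩)) = 2 := (relIndex_ofRGD R hBT hG hX hconn ⟨0, hl⟩).symm.trans (h1 ⟨0, hl⟩)
  have h3 := hc ⟨0, hl⟩
  omega

end

/-- **rank one, more than one factor** -/
theorem own_k2 {G : Type} [Group G] [Finite G] [IsSimpleGroup G] {p : ℕ} [Fact p.Prime] (hG : HasFilt p G)
    {H N : Subgroup G} {T : Type} [Group T] {k : ℕ} {e : N ≃* (Fin k → T)} (h : EPS H N e) (hk : 2 ≤ k)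
    (hT : RankOne p T) (hSz : p = 2 → Lie.IsoSuzuki T → Nonempty (R1 2 T))
    (hRee : p = 3 → Lie.IsoRee T → Nonempty (R1 3 T)) : False := by
  classical
  have hTs := h.simple
  have hTf : Finite T := by
    have : Nonempty (Fin k) := ⟨⟨0, h.pos⟩⟩
    have h1 : Finite (Fin k → T) := Finite.of_equiv N e.toEquiv
    exact Finite.of_surjective (fun f : Fin k → T => f ⟨0, h.pos⟩) fun t => ⟨fun _ => t, rfl⟩
  have hGn : ∃ a b : G, a * b ≠ b * a := by
    obtain ⟨a, b, hab⟩ := h.nab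
    refine ⟨(e.symm (fun _ => a) : N), (e.symm (fun _ => b) : N), fun h3 => hab ?_⟩
    have h4 : e.symm (fun _ => a) * e.symm (fun _ => b) = e.symm (fun _ => b) * e.symm (fun _ => a) := Subtype.ext h3
    rw [← map_mul, ← map_mul] at h4
    exact congrFun (e.symm.injective h4) ⟨0, h.pos⟩
  have hn : (MonoidHom.id G).range.Normal := by
    rw [MonoidHom.range_eq_top.2 Function.surjective_id]; infer_instance
  have hNj : N ≤ (MonoidHom.id G).range := by
    rw [MonoidHom.range_eq_top.2 Function.surjective_id]; exact le_top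
  have hi : Function.Injective (MonoidHom.id G) := Function.injective_id
  have filt : ∀ {l : ℕ} {M : CoxeterMatrix (Fin l)} {q : Fin l → ℕ} {S : Type} [Group S],
      0 < l → HasFiltQ p M q S → (T ≃* S) → (∀ i, 3 ≤ q i) → k = 1 := by
    intro l M q S _ hl hS f hq
    have : Finite S := Finite.of_equiv T f.toEquiv
    refine k_eq_one_filtC h hG hGn hi hn hNj hl (FiltC.of_equiv (M := M) f.symm ?_)
    obtain ⟨A, h, T, n, X, R, F, h1, h2, h3, h4⟩ := hS
    exact ⟨A, h, T, n, X, R, F, h1, h2, h3, fun i => (hq i).trans (h4 i)⟩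
  have hk1 : k = 1 := by
    rcases hT with ⟨F, i1, i2, i3, hF, ⟨f⟩⟩ | ⟨F, i1, i2, i3, q, hF, hq, ⟨f⟩⟩ | ⟨hp, hs⟩ | ⟨hp, hs⟩
    · refine filt (by norm_num) (fq_PSL (F := F) 1 (p := p)) f fun i => ?_
      rw [Nat.card_eq_fintype_card]
      omega
    · refine filt (by norm_num) (fq_PSU_odd hF (m := 1) (by norm_num) (p := p)) f fun i => ?_
      split_ifs
      · nlinarith
      · calc 3 ≤ q := hq
          _ ≤ q ^ 3 := Nat.le_self_pow (by norm_num) q
    · subst hp
      obtain ⟨D⟩ := hSz rfl hs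
      exact k_eq_one_R1 h hG hGn hi hn hNj D
    · subst hp
      obtain ⟨D⟩ := hRee rfl hs
      exact k_eq_one_R1 h hG hGn hi hn hNj D
  omega

end Cfsg.Agent.H515.EPO.KTwo
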